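import Cfsg.Agent.PQ.Th.Plc
import Cfsg.Agent.PQ.G4.Od
import Cfsg.Agent.J3Type.CharTools

/-!
# The Weil character of the symplectic group at elements without eigenvalue `1`
-/

set_option autoImplicit false
set_option linter.unusedSectionVars false

namespace Cfsg.Agent.PQ.Kfo

open Module Polynomial Cfsg Cfsg.Agent.H615.GU Cfsg.Agent.PQ.Mk Cfsg.Agent.H794.GUT Cfsg.Agent.PQ.Th Cfsg.Agent.PQ.G4
open Cfsg.Agent.PQ.Wl (fx mem_fx IsV IsW)

variable {F V V' V₁ V₂ W W₁ W₂ : Type} [Field F] [Finite F] [AddCommGroup V] [Module F V] [AddCommGroup V'] [Module F V']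
  [AddCommGroup V₁] [Module F V₁] [AddCommGroup V₂] [Module F V₂] [AddCommGroup W] [Module F W]
  [AddCommGroup W₁] [Module F W₁] [AddCommGroup W₂] [Module F W₂] {ψ : AddChar F ℂ}

/-! ### columns -/

/-- the partition with one column -/
noncomputable def c1 (n : ℕ) : Col := ⟨Finsupp.single 0 n, fun i j hij => by
  rcases Nat.eq_zero_or_pos j with rfl | hj
  · rw [Nat.le_zero.1 hij]
  · rw [Finsupp.single_eq_of_ne hj.ne']
    exact Nat.zero_le _⟩

theorem c1_apply (n j : ℕ) : c1 n j = if j = 0 then n else 0 := by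
  change Finsupp.single 0 n j = _
  rw [Finsupp.single_apply]
  simp only [eq_comm]

theorem size_c1 (n : ℕ) : (c1 n).size = n := by
  rw [size_eq _ (b := 1) fun j hj => by rw [c1_apply, if_neg (by omega)], Finset.sum_range_one, c1_apply, if_pos rfl]

theorem aeval_pow_card (T : End F V) (φ : F[X]) (n : ℕ) : aeval (T ^ Nat.card F ^ n) φ = aeval T (φ ^ Nat.card F ^ n) := by
  have := Fintype.ofFinite F
  induction n with
  | zero => simp
  | succ n ih => rw [pow_succ, pow_mul, ← expand_aeval, Nat.card_eq_fintype_card, FiniteField.expand_card, map_pow,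
      ← Nat.card_eq_fintype_card, ih, ← map_pow, ← pow_mul]

variable [FiniteDimensional F V] [FiniteDimensional F V'] [FiniteDimensional F V₁] [FiniteDimensional F V₂]
  [FiniteDimensional F W] [FiniteDimensional F W₁] [FiniteDimensional F W₂]

/-- the semisimple part -/
theorem col_pow (T : End F V) {φ : F[X]} (hφ : φ.Monic) (hirr : Irreducible φ) :
    col (T ^ Nat.card F ^ finrank F V) φ = c1 (col T φ).size := Col.ext fun j => by
  rw [col_apply _ hφ hirr]
  refine cf_of_kd hirr (fun j => ?_) j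
  have h1 : finrank F V < Nat.card F ^ finrank F V := Nat.lt_pow_self Finite.one_lt_card
  rw [kd, aeval_pow_card, ← pow_mul, ← kd, kd_eq T hφ hirr]
  rcases j with _ | j
  · simp
  · rw [Finset.sum_range_succ' _ j, c1_apply, if_pos rfl, Finset.sum_eq_zero (s := Finset.range j) fun i _ => by
        rw [c1_apply, if_neg (by omega)],
      zero_add, size_eq _ (b := (j + 1) * Nat.card F ^ finrank F V) fun i hi => by
        rw [col_apply T hφ hirr, cf_eq_zero T hφ hirr (by nlinarith)]]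
    simp only [col_apply T hφ hirr]

theorem col_of_not (T : End F V) {φ : F[X]} (h : ¬ (φ.Monic ∧ Irreducible φ)) : col T φ = 0 := dif_neg h

theorem col_prod (T : End F V) (T' : End F V') (φ : F[X]) (j : ℕ) :
    col (T.prodMap T' : End F (V × V')) φ j = col T φ j + col T' φ j := by
  by_cases h : φ.Monic ∧ Irreducible φ
  · rw [col_apply _ h.1 h.2, col_apply _ h.1 h.2, col_apply _ h.1 h.2, cf_prod _ _ h.1 h.2]
  · rw [col_of_not _ h, col_of_not _ h, col_of_not _ h]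
    rfl

theorem col_prod_ne {T : End F V} {T' : End F V'} {φ : F[X]} (h : col (T.prodMap T' : End F (V × V')) φ ≠ 0) :
    col T φ ≠ 0 ∨ col T' φ ≠ 0 := by
  by_contra h1
  rw [not_or, not_not, not_not] at h1
  exact h (Col.ext fun j => by rw [col_prod, h1.1, h1.2]; rfl)

theorem col_triv [Subsingleton V] (T : End F V) (φ : F[X]) : col T φ = 0 := by
  by_cases h : φ.Monic ∧ Irreducible φ
  · exact Col.ext fun j => by rw [col_apply _ h.1 h.2, cf_eq_zero _ h.1 h.2 (by rw [finrank_zero_of_subsingleton]; omega)]; rfl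
  · exact col_of_not _ h

theorem inj_of_col {T : End F V} {a : F} (h : col T (X - C a) = 0) {v : V} (hv : T v = a • v) : v = 0 := by
  rw [kd_zero_iff T (monic_X_sub_C a) (irreducible_X_sub_C a), kd, pow_one, Submodule.finrank_eq_zero] at h
  exact (Submodule.mem_bot F).1 (h ▸ LinearMap.mem_ker.2 (by simp [hv]))

section K

variable {K : Type} [Field K] [Algebra F K] [Algebra.IsAlgebraic F K] {lam : Kˣ}

theorem mp_ne (hl : lam ≠ lam⁻¹) {a : F} (ha : a * a = 1) : X - C a ≠ mp F lam := fun h => by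
  have h1 := mp_aeval (F := F) lam
  rw [← h, map_sub, aeval_X, aeval_C, sub_eq_zero] at h1
  exact hl (eq_inv_of_mul_eq_one_left (Units.ext (by rw [Units.val_mul, h1, ← map_mul, ha, map_one, Units.val_one])))

theorem mp_ne' (hl : lam ≠ lam⁻¹) {a : F} (ha : a * a = 1) : X - C a ≠ mp F lam⁻¹ :=
  mp_ne (lam := lam⁻¹) (fun h => hl (h.trans (inv_inv lam)).symm) ha

theorem col_one (hl : lam ≠ lam⁻¹) : col (1 : End F V) (mp F lam) = 0 := by
  rw [kd_zero_iff _ (mp_monic lam) (mp_irr lam), kd, pow_one, Submodule.finrank_eq_zero, eq_bot_iff]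
  intro v hv
  rw [LinearMap.mem_ker, ← map_one (algebraMap F (End F V)), aeval_algebraMap_apply_eq_algebraMap_eval,
    Module.algebraMap_end_apply, smul_eq_zero] at hv
  exact hv.resolve_left fun h => mp_ne hl (one_mul 1) (eq_of_monic_of_associated (monic_X_sub_C 1) (mp_monic lam)
    ((irreducible_X_sub_C 1).associated_of_dvd (mp_irr lam) (dvd_iff_isRoot.2 h)))

theorem pu_pow {T : End F V} (h : Pu lam T) : Pu lam (T ^ Nat.card F ^ finrank F V) := fun φ hφ => h φ fun h0 => hφ (by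
  by_cases h : φ.Monic ∧ Irreducible φ
  · rw [col_pow T h.1 h.2, h0]
    exact Col.ext fun j => by rw [c1_apply, Col.size_zero, ite_self]; rfl
  · exact col_of_not _ h)

theorem pu_prod {T : End F V} {T' : End F V'} (h : Pu lam T) (h' : Pu lam T') : Pu lam (T.prodMap T' : End F (V × V')) :=
  fun φ hφ => (col_prod_ne hφ).elim (h φ) (h' φ)

theorem pu_fx (hl : lam ≠ lam⁻¹) {g : V ≃ₗ[F] V} (h : Pu lam (g : End F V)) : fx g = ⊥ := by
  have h1 : col (g : End F V) (X - C 1) = 0 := by_contra fun h0 => (h _ h0).elim (mp_ne hl (one_mul 1))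
    (mp_ne' hl (one_mul 1))
  refine eq_bot_iff.2 fun v hv => (Submodule.mem_bot F).2 (inj_of_col h1 ?_)
  rw [one_smul]
  exact mem_fx.1 hv

end K

/-! ### the Weil character -/

/-- the line -/
noncomputable def ln (h2 : (2 : F) ≠ 0) : Fm true F F :=
  have h : ∀ w : F, (QuadraticMap.sq (R := F)).polarBilin w 1 = 0 → w = 0 := fun w h1 => by
    simp only [QuadraticMap.polarBilin_apply_apply, QuadraticMap.polar, QuadraticMap.sq_apply] at h1
    exact mul_left_cancel₀ h2 (by linear_combination h1)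
  ⟨(QuadraticMap.sq (R := F)).polarBilin, QuadraticMap.sq, ⟨fun w hw => h w (hw 1),
    fun w hw => h w ((Wl.pol_comm _ _ _).trans (hw 1))⟩, nofun, fun _ => rfl⟩

variable (hψ : ψ ≠ 1) (h2 : (2 : F) ≠ 0)

/-- the Weil character -/
noncomputable def om (ψ : AddChar F ℂ) (h2 : (2 : F) ≠ 0) (Φ : Fm false F V) (g : Φ.G) : ℂ := tx ψ Φ (ln h2) g 1

include hψ h2

theorem tx_splV {Φ : Fm false F V} {g : Φ.G} {Φ₁ : Fm false F V₁} {g₁ : Φ₁.G} {Φ₂ : Fm false F V₂} {g₂ : Φ₂.G}
    (s : Spl Φ g Φ₁ g₁ Φ₂ g₂) (Ψ : Fm true F W) (h : Ψ.G) : tx ψ Φ Ψ g h = tx ψ Φ₁ Ψ g₁ h * tx ψ Φ₂ Ψ g₂ h := by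
  have := Module.finite_of_finite F (M := V₁)
  have := Module.finite_of_finite F (M := V₂)
  have := Module.finite_of_finite F (M := W)
  obtain ⟨e, h1, -, h3⟩ := s
  exact Wo.Th_sumV e h1 (cxo hψ h2 Φ₁ Ψ) (cxo hψ h2 Φ₂ Ψ) (isV g₁) (isV g₂) h3 (isW h)

theorem tx_splW {Ψ : Fm true F W} {h : Ψ.G} {Ψ₁ : Fm true F W₁} {h₁ : Ψ₁.G} {Ψ₂ : Fm true F W₂} {h₂ : Ψ₂.G}
    (s : Spl Ψ h Ψ₁ h₁ Ψ₂ h₂) (Φ : Fm false F V) (g : Φ.G) : tx ψ Φ Ψ g h = tx ψ Φ Ψ₁ g h₁ * tx ψ Φ Ψ₂ g h₂ := by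
  have := Module.finite_of_finite F (M := W₁)
  have := Module.finite_of_finite F (M := W₂)
  have := Module.finite_of_finite F (M := V)
  obtain ⟨e, -, h1, h3⟩ := s
  exact Wo.Th_sumW e h1 (cxo hψ h2 Φ Ψ₁) (cxo hψ h2 Φ Ψ₂) (isW h₁) (isW h₂) h3 (isV g)

theorem tx_triv [Subsingleton V] (Φ : Fm false F V) (Ψ : Fm true F W) (g : Φ.G) (h : Ψ.G) : tx ψ Φ Ψ g h = 1 := by
  have := Module.finite_of_finite F (M := W)
  rw [tx, Subsingleton.elim g.1 1, Wo.Th_one_left (cxo hψ h2 Φ Ψ) (isW h), Wo.Osc.cW, finrank_zero_of_subsingleton, pow_zero]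

theorem om_congr {Φ : Fm false F V} {Φ' : Fm false F V'} {g : Φ.G} {g' : Φ'.G} (i : V ≃ₗ[F] V')
    (h : ∀ u v, Φ'.B (i u) (i v) = Φ.B u v) (h' : ∀ v, i (g.1 v) = g'.1 (i v)) : om ψ h2 Φ g = om ψ h2 Φ' g' :=
  have := Module.finite_of_finite F (M := V)
  Wo.Th_congr (cxo hψ h2 Φ (ln h2)) i (LinearEquiv.refl F F) one_ne_zero (fun _ _ => by rw [h, one_mul])
    (fun _ => (one_mul _).symm) (isV g) (IsW.one _) (fun v => (h' v).symm) fun _ => rfl

theorem om_pm {Φ : Fm false F V} {g : Φ.G} (hg : fx g.1 = ⊥) : om ψ h2 Φ g = 1 ∨ om ψ h2 Φ g = -1 := by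
  have := Module.finite_of_finite F (M := V)
  have c := cxo hψ h2 Φ (ln h2)
  have hQ : ∀ w : F × F, (ln h2).Q.prod (ln h2).Q w =
      (ln h2).Q (LinearEquiv.refl F _ w).1 + (ln h2).Q (LinearEquiv.refl F _ w).2 := fun _ => rfl
  have c' := (c.sumW _ hQ c).toWl (by simp)
  have h := Wo.Th_sumW (h := 1) _ hQ c c (IsW.one _) (IsW.one _) (fun _ => rfl) (isV g)
  rw [Wo.Th_even c' h2 (isV g) (IsW.one _), Wl.Th_one_right c' (isV g), hg, finrank_bot, pow_zero] at h
  exact mul_self_eq_one_iff.1 h.symm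

theorem om_conj {Φ : Fm false F V} {g : Φ.G} (hg : fx g.1 = ⊥) : starRingEnd ℂ (om ψ h2 Φ g) = om ψ h2 Φ g := by
  rcases om_pm hψ h2 hg with h | h <;> simp [h]

theorem om_pow {Φ : Fm false F V} {g : Φ.G} (hg : fx g.1 = ⊥) (n : ℕ) :
    fx (g ^ ringChar F ^ n).1 = ⊥ ∧ om ψ h2 Φ (g ^ ringChar F ^ n) = om ψ h2 Φ g := by
  have := Module.finite_of_finite F (M := V)
  have hp := CharP.char_is_prime F (ringChar F)
  have := Fact.mk hp
  induction n with
  | zero => rw [pow_zero, pow_one]; exact ⟨hg, rfl⟩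
  | succ n ih =>
    rw [pow_succ, pow_mul, ← ih.2]
    generalize g ^ ringChar F ^ n = k at ih
    have h1 : fx (k ^ ringChar F).1 = ⊥ := by
      have h3 : ((k ^ ringChar F).1 : End F V) - 1 = ((k.1 : End F V) - 1) ^ ringChar F := by
        have h4 := congrArg (aeval (k.1 : End F V)) (sub_pow_char (X : F[X]) 1 (p := ringChar F))
        simp only [map_pow, map_sub, aeval_X, map_one, one_pow] at h4
        rw [h4]
        exact congrArg (· - 1) (map_pow (LinearEquiv.automorphismGroup.toLinearMapMonoidHom.comp Φ.G.subtype) k _)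
      have h5 := (LinearMap.ker_eq_bot.1 ih.1).iterate (ringChar F)
      rw [← Module.End.coe_pow] at h5
      exact (congrArg LinearMap.ker h3).trans (LinearMap.ker_eq_bot.2 h5)
    refine ⟨h1, ?_⟩
    have h3 := fun a b : ℤ => J3Type.CharTools.int_congr (Characters.Core.isCharacter_comp (MonoidHom.inl Φ.G (ln h2).G)
      (tx_char hψ h2 Φ (ln h2))) k hp (a := a) (b := b)
    have h4 : ¬ (ringChar F : ℤ) ∣ 2 := fun h => h2 (by
      have h5 := (ringChar.spec F 2).2 (by exact_mod_cast h)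
      exact_mod_cast h5)
    rcases om_pm hψ h2 ih.1 with h | h <;> rcases om_pm hψ h2 h1 with h' | h'
    · rw [h, h']
    · exact absurd (h3 1 (-1) (h.trans Int.cast_one.symm) (h'.trans (by simp))) (by simpa using h4)
    · exact absurd (dvd_neg.2 (h3 (-1) 1 (h.trans (by simp)) (h'.trans Int.cast_one.symm))) (by simpa using h4)
    · rw [h, h']

/-- **one place** -/
theorem exists_w {K : Type} [Field K] [Algebra F K] [Algebra.IsAlgebraic F K] {lam : Kˣ} (hl : lam ≠ lam⁻¹) {e : ℕ} {t : ℤ}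
    (L : Lcl F false lam e t) : ∃ w : ℤˣ, ∀ (V : Type) [AddCommGroup V] [Module F V] [FiniteDimensional F V]
      (Φ : Fm false F V) (g : Φ.G), Pu lam (g.1 : End F V) →
      om ψ h2 Φ g = ((w ^ (col (g.1 : End F V) (mp F lam)).size : ℤˣ) : ℤ) := by
  obtain ⟨m, Φ₀, g₀, p₀, c₀⟩ := L.ex (c1 1)
  obtain ⟨w, hw⟩ : ∃ w : ℤˣ, om ψ h2 Φ₀ g₀ = (w : ℤ) := by
    rcases om_pm hψ h2 (pu_fx hl p₀) with h | h
    · exact ⟨1, by simp [h]⟩
    · exact ⟨-1, by simp [h]⟩
  have h1 : ∀ (n : ℕ) (V : Type) [AddCommGroup V] [Module F V] [FiniteDimensional F V] (Φ : Fm false F V) (g : Φ.G),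
      Pu lam (g.1 : End F V) → col (g.1 : End F V) (mp F lam) = c1 n → om ψ h2 Φ g = ((w ^ n : ℤˣ) : ℤ) := by
    intro n
    induction n with
    | zero =>
      intro V _ _ _ Φ g p c
      have h := L.dim Φ g p
      rw [c, size_c1, mul_zero] at h
      have := finrank_zero_iff.1 h
      rw [om, tx_triv hψ h2]
      simp
    | succ n ih =>
      intro V _ _ _ Φ g p c
      obtain ⟨m', Φ', g', p', c'⟩ := L.ex (c1 n)
      obtain ⟨i, h1, -, h3⟩ := L.iso Φ (dbl Φ' Φ₀) g (pr g' g₀) p (pu_prod p' p₀) (Col.ext fun j => by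
        rw [c]
        refine Eq.trans ?_ (col_prod _ _ _ j).symm
        rw [c', c₀, c1_apply, c1_apply, c1_apply]
        split_ifs <;> rfl)
      have h4 := tx_dblV hψ h2 Φ' Φ₀ (ln h2) g' g₀ 1
      rw [om_congr hψ h2 i h1 h3, om, h4, ← om, ← om, om_conj hψ h2 (pu_fx hl p'), ih _ Φ' g' p' c', hw, pow_succ]
      push_cast
      rfl
  refine ⟨w, fun V _ _ _ Φ g p => ?_⟩
  have := Fintype.ofFinite F
  obtain ⟨n, -, hn⟩ := FiniteField.card F (ringChar F)
  have h3 : ((g ^ Nat.card F ^ finrank F V).1 : End F V) = (g.1 : End F V) ^ Nat.card F ^ finrank F V :=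
    map_pow (LinearEquiv.automorphismGroup.toLinearMapMonoidHom.comp Φ.G.subtype) g _
  rw [← h1 _ V Φ (g ^ Nat.card F ^ finrank F V) (h3 ▸ pu_pow p) (h3 ▸ col_pow _ (mp_monic lam) (mp_irr lam)),
    Nat.card_eq_fintype_card, hn, ← pow_mul, (om_pow hψ h2 (pu_fx hl p) _).2]

end Cfsg.Agent.PQ.Kfo
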